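import Mathlib
import Cfsg.Prelude.Def_Spor_Mathieu
import Cfsg.Agent.S0378

/-!
# The order of the group `M₂₂` of the Prelude
-/

set_option autoImplicit false

namespace Cfsg.Agent.H33.R3

open Cfsg

theorem mem_M22' {g : Equiv.Perm GolayPt} :
    g ∈ Spor.M22 ↔ g ∈ M24 ∧ g none = none ∧ g (some 0) = some 0 := by
  constructor
  · rintro ⟨⟨h1, h2⟩, h3⟩; exact ⟨h1, h2, h3⟩
  · rintro ⟨h1, h2, h3⟩; exact ⟨⟨h1, h2⟩, h3⟩

/-- the group `M₂₂` of the Prelude as a two-point stabiliser in `M₂₄` -/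
noncomputable def m22Equiv : ↥Spor.M22 ≃* ↥(MulAction.stabilizer ↥M24 (none : GolayPt) ⊓
    MulAction.stabilizer ↥M24 (some 0 : GolayPt)) where
  toFun g := ⟨⟨g.1, (mem_M22'.mp g.2).1⟩, Subgroup.mem_inf.mpr
    ⟨MulAction.mem_stabilizer_iff.mpr (mem_M22'.mp g.2).2.1,
      MulAction.mem_stabilizer_iff.mpr (mem_M22'.mp g.2).2.2⟩⟩
  invFun g := ⟨g.1.1, mem_M22'.mpr ⟨g.1.2,
    MulAction.mem_stabilizer_iff.mp (Subgroup.mem_inf.mp g.2).1,
    MulAction.mem_stabilizer_iff.mp (Subgroup.mem_inf.mp g.2).2⟩⟩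
  left_inv _ := rfl
  right_inv _ := rfl
  map_mul' _ _ := rfl

theorem card_M22' : Nat.card ↥Spor.M22 = 443520 := by
  rw [Nat.card_congr m22Equiv.toEquiv]
  exact Cfsg.Agent.S0378.result none (some 0) (by simp)

end Cfsg.Agent.H33.R3
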